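import Mathlib
import Cfsg.Prelude.Def_Sporadic_a
import Cfsg.Agent.SPOR.Cent7
import Cfsg.Agent.SPOR.Co0Mult
import Cfsg.Agent.SOLV.HallConverse
import Cfsg.Agent.SOLV.Primitive

/-!
The subgroups `N` and `L` of the Monster amalgam (S5586; statements by helper39, proofs by helper8).
-/

set_option autoImplicit false

namespace CL.MA

open Cfsg Subgroup

namespace NLx

abbrev S3 := Matrix.SpecialLinearGroup (Fin 3) (ZMod 2)

set_option synthInstance.maxSize 100000 in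
set_option maxRecDepth 100000 in
theorem F2aux : ∀ a b c d e f g h i : ZMod 2,
    (a * a + b * d + c * g = 1 ∧ a * b + b * e + c * h = 0 ∧ a * c + b * f + c * i = 0 ∧
     d * a + e * d + f * g = 0 ∧ d * b + e * e + f * h = 1 ∧ d * c + e * f + f * i = 0 ∧
     g * a + h * d + i * g = 0 ∧ g * b + h * e + i * h = 0 ∧ g * c + h * f + i * i = 1) →
    ¬ (a = 1 ∧ b = 0 ∧ c = 0 ∧ d = 0 ∧ e = 1 ∧ f = 0 ∧ g = 0 ∧ h = 0 ∧ i = 1) →
    ∀ a' b' c' d' e' f' g' h' i' : ZMod 2,
    (a * a' + b * d' + c * g' = a' * a + b' * d + c' * g ∧ a * b' + b * e' + c * h' = a' * b + b' * e + c' * h ∧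
      a * c' + b * f' + c * i' = a' * c + b' * f + c' * i ∧
     d * a' + e * d' + f * g' = d' * a + e' * d + f' * g ∧ d * b' + e * e' + f * h' = d' * b + e' * e + f' * h ∧
      d * c' + e * f' + f * i' = d' * c + e' * f + f' * i ∧
     g * a' + h * d' + i * g' = g' * a + h' * d + i' * g ∧ g * b' + h * e' + i * h' = g' * b + h' * e + i' * h ∧
      g * c' + h * f' + i * i' = g' * c + h' * f + i' * i) →
    !![a', b', c'; d', e', f'; g', h', i'] * !![a', b', c'; d', e', f'; g', h', i'] *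
      !![a', b', c'; d', e', f'; g', h', i'] = 1 → !![a', b', c'; d', e', f'; g', h', i'] = 1 := by
  decide +kernel

theorem F2 (x y : S3) (hx : x * x = 1) (h : x * y = y * x) (hy : y ^ 3 = 1) : x = 1 ∨ y = 1 := by
  by_cases x1 : x = 1
  · exact Or.inl x1
  right
  have hx' : x.1 * x.1 = 1 := congrArg Subtype.val hx
  have h' : x.1 * y.1 = y.1 * x.1 := congrArg Subtype.val h
  have hy' : y.1 * y.1 * y.1 = 1 := by
    have := congrArg Subtype.val hy
    rw [pow_succ, pow_two] at this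
    exact this
  have x1' : x.1 ≠ 1 := fun e => x1 (Subtype.ext e)
  apply Subtype.ext
  change y.1 = 1
  rw [Matrix.eta_fin_three y.1] at hy' ⊢
  have A := fun i j => congrFun (congrFun hx' i) j
  have B := fun i j => congrFun (congrFun h' i) j
  simp only [Matrix.mul_apply, Fin.sum_univ_three] at A B
  refine F2aux (x.1 0 0) (x.1 0 1) (x.1 0 2) (x.1 1 0) (x.1 1 1) (x.1 1 2) (x.1 2 0) (x.1 2 1) (x.1 2 2)
    ⟨A 0 0, A 0 1, A 0 2, A 1 0, A 1 1, A 1 2, A 2 0, A 2 1, A 2 2⟩ ?_ _ _ _ _ _ _ _ _ _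
    ⟨B 0 0, B 0 1, B 0 2, B 1 0, B 1 1, B 1 2, B 2 0, B 2 1, B 2 2⟩ hy'
  rintro ⟨h1, h2, h3, h4, h5, h6, h7, h8, h9⟩
  apply x1'
  rw [Matrix.eta_fin_three x.1, h1, h2, h3, h4, h5, h6, h7, h8, h9]
  decide

theorem eq_or_top {Γ : Type*} [Group Γ] {H K : Subgroup Γ} {p : ℕ} (hp : p.Prime) (hi : H.index = p)
    (hle : H ≤ K) : K = H ∨ K = ⊤ := by
  have h1 : K.index ∣ p := hi ▸ index_dvd_of_le hle
  rcases (Nat.dvd_prime hp).1 h1 with h | h
  · exact Or.inr (index_eq_one.1 h)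
  · left
    have h2 := relIndex_mul_index hle
    rw [hi, h] at h2
    have h3 : H.relIndex K = 1 := by
      have : H.relIndex K * p = 1 * p := by rw [h2, one_mul]
      exact Nat.eq_of_mul_eq_mul_right hp.pos this
    exact le_antisymm (relIndex_eq_one.1 h3) hle

theorem fin_of_rel {G : Type*} [Group G] {C N : Subgroup G} (fin : Finite C) (h : C.relIndex N ≠ 0) :
    Finite N := by
  have h1 : Finite (C.subgroupOf N) :=
    Finite.of_injective (fun x : C.subgroupOf N => (⟨((x : N) : G), x.2⟩ : C)) (fun a b e =>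
      Subtype.ext (Subtype.ext (congrArg (fun t : C => (t : G)) e)))
  have h2 := card_mul_index (C.subgroupOf N)
  apply Nat.finite_of_card_ne_zero
  rw [← h2]
  exact mul_ne_zero Nat.card_pos.ne' h

theorem ncard_range {L X : Type*} [Group L] (H : Subgroup L) (f : L → X)
    (h : ∀ a b, f a = f b ↔ a⁻¹ * b ∈ H) : (Set.range f).ncard = H.index := by
  let g : L ⧸ H → X := Quotient.lift f (fun a b hab => (h a b).2 (QuotientGroup.leftRel_apply.1 hab))
  have gi : Function.Injective g := by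
    intro a b
    induction a using QuotientGroup.induction_on with | _ a =>
    induction b using QuotientGroup.induction_on with | _ b =>
    intro e
    exact QuotientGroup.eq.2 ((h _ _).1 e)
  have : Set.range f = Set.range g := by
    ext x
    constructor
    · rintro ⟨a, rfl⟩
      exact ⟨(a : L ⧸ H), rfl⟩
    · rintro ⟨a, rfl⟩
      induction a using QuotientGroup.induction_on with | _ a =>
      exact ⟨a, rfl⟩
  rw [this, ← Nat.card_coe_set_eq, Nat.card_range_of_injective gi, index_eq_card]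

/-- a nontrivial element of 2-power order does not commute with an element of order 3 -/
theorem F2' {T : Subgroup S3} (hT : IsPGroup 2 T) {x y : S3} (hx : x ∈ T) (h : x * y = y * x) (hy : y ^ 3 = 1)
    (y1 : y ≠ 1) : x = 1 := by
  obtain ⟨k, hk⟩ := hT ⟨x, hx⟩
  have hk' : x ^ 2 ^ k = 1 := congrArg Subtype.val hk
  clear hk
  induction k with
  | zero => simpa using hk'
  | succ k ih =>
    apply ih
    have c : Commute x y := h
    rcases F2 (x ^ 2 ^ k) y (by rw [← pow_two, ← pow_mul, ← pow_succ]; exact hk') (c.pow_left _) hy with e | e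
    · exact e
    · exact absurd e y1

theorem card_fpf {T Y : Subgroup S3} (hT : IsPGroup 2 T) (hTY : T ≤ Y) (hY : Nat.card Y = 24) {y : S3}
    (hy : y ^ 3 = 1) (y1 : y ≠ 1) (hn : ∀ t ∈ T, y * t * y⁻¹ ∈ T) : Nat.card T = 1 ∨ Nat.card T = 4 := by
  haveI : Fact (Nat.Prime 3) := ⟨Nat.prime_three⟩
  haveI : Fact (Nat.Prime 2) := ⟨Nat.prime_two⟩
  have hA : IsPGroup 3 (zpowers y) := by
    apply IsPGroup.of_card (n := 1)
    rw [Nat.card_zpowers, pow_one]
    exact orderOf_eq_prime hy y1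
  have hn' : zpowers y ≤ normalizer (T : Set S3) := by
    rw [zpowers_le]
    exact mem_normalizer_fintype (S := (T : Set S3)) hn
  have h1 := CL.Prim.card_modEq_card_inf_centralizer hA hn'
  have h2 : T ⊓ centralizer (zpowers y : Set S3) = ⊥ := by
    rw [eq_bot_iff]
    intro x hx
    rw [mem_bot]
    exact F2' hT hx.1 (hx.2 y (mem_zpowers y)).symm hy y1
  rw [h2, card_bot] at h1
  obtain ⟨k, hk⟩ := IsPGroup.iff_card.1 hT
  have h3 : 2 ^ k ∣ 24 := by rw [← hk, ← hY]; exact card_dvd_of_le hTY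
  have h4 : k ≤ 3 := by
    by_contra hc
    have : 2 ^ 4 ∣ 24 := (pow_dvd_pow 2 (by omega)).trans h3
    omega
  rw [hk] at h1 ⊢
  interval_cases k <;> simp [Nat.ModEq] at h1 ⊢

end NLx

open NLx

variable {G : Type*} [Group G] {C N L : Subgroup G}

/-- the data on `N` and `L` -/
structure NL (C N L : Subgroup G) (μ : N →* Equiv.Perm (Fin 3) × M24)
    (π : L →* Matrix.SpecialLinearGroup (Fin 3) (ZMod 2)) : Prop where
  fin : Finite C
  μs : Function.Surjective μ
  μk : IsPGroup 2 μ.ker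
  πs : Function.Surjective π
  πk : ∃ a, Nat.card π.ker = 2 ^ a * 2160
  hNC : C.relIndex N = 3
  hLN : N.relIndex L = 7
  hLC : C.relIndex L = 7
  hLNC : (N ⊓ C).relIndex L = 21

theorem exists_NL (fin : Finite C) (hN : Nonempty (N ⧸ pCore 2 N ≃* Equiv.Perm (Fin 3) × M24))
    {A B : Subgroup (L ⧸ pCore 2 L)} (hA : A.Normal) (hB : B.Normal) (h0 : A ⊓ B = ⊥) (h1 : A ⊔ B = ⊤)
    (e : Nonempty (A ≃* Matrix.SpecialLinearGroup (Fin 3) (ZMod 2))) (hc : Nat.card B = 2160)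
    (hNC : C.relIndex N = 3) (hLN : N.relIndex L = 7) (hLC : C.relIndex L = 7)
    (hLNC : (N ⊓ C).relIndex L = 21) : ∃ μ π, NL C N L μ π := by
  haveI : Fact (Nat.Prime 2) := ⟨Nat.prime_two⟩
  haveI fN : Finite N := fin_of_rel fin (by rw [hNC]; norm_num)
  haveI fL : Finite L := fin_of_rel fin (by rw [hLC]; norm_num)
  obtain ⟨eN⟩ := hN
  obtain ⟨e⟩ := e
  have hb : Function.Bijective ((QuotientGroup.mk' B).comp A.subtype) := by
    constructor
    · rw [← MonoidHom.ker_eq_bot_iff, eq_bot_iff]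
      intro x hx
      have hx' : (x : L ⧸ pCore 2 L) ∈ B := (QuotientGroup.eq_one_iff _).1 hx
      have : (x : L ⧸ pCore 2 L) ∈ A ⊓ B := ⟨x.2, hx'⟩
      rw [h0, mem_bot] at this
      exact mem_bot.2 (Subtype.ext this)
    · intro q
      induction q using QuotientGroup.induction_on with | _ q =>
      have : q ∈ A ⊔ B := h1 ▸ mem_top q
      obtain ⟨a, ha, b, hb, rfl⟩ := mem_sup_of_normal_right.1 this
      refine ⟨⟨a, ha⟩, ?_⟩
      change ((a : L ⧸ pCore 2 L) : (L ⧸ pCore 2 L) ⧸ B) = _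
      rw [QuotientGroup.eq]
      simpa using hb
  let e2 := MulEquiv.ofBijective _ hb
  let π : L →* S3 := (e.toMonoidHom.comp e2.symm.toMonoidHom).comp
    ((QuotientGroup.mk' B).comp (QuotientGroup.mk' (pCore 2 L)))
  have hk : π.ker = B.comap (QuotientGroup.mk' (pCore 2 L)) := by
    ext x
    simp only [π, MonoidHom.mem_ker, MonoidHom.comp_apply, MulEquiv.coe_toMonoidHom, mem_comap,
      EmbeddingLike.map_eq_one_iff, QuotientGroup.mk'_apply, QuotientGroup.eq_one_iff]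
  refine ⟨eN.toMonoidHom.comp (QuotientGroup.mk' _), π, fin, ?_, ?_, ?_, ?_, hNC, hLN, hLC, hLNC⟩
  · exact eN.surjective.comp (QuotientGroup.mk'_surjective _)
  · have : (eN.toMonoidHom.comp (QuotientGroup.mk' (pCore 2 N))).ker = pCore 2 N := by
      ext x
      simp only [MonoidHom.mem_ker, MonoidHom.comp_apply, MulEquiv.coe_toMonoidHom,
        EmbeddingLike.map_eq_one_iff, QuotientGroup.mk'_apply, QuotientGroup.eq_one_iff]
    rw [this]
    exact CL.isPGroup_pCore 2 N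
  · exact (e.surjective.comp e2.symm.surjective).comp
      ((QuotientGroup.mk'_surjective B).comp (QuotientGroup.mk'_surjective _))
  · obtain ⟨a, ha⟩ := IsPGroup.iff_card.1 (CL.isPGroup_pCore 2 L)
    refine ⟨a, ?_⟩
    have i1 : π.ker.index = B.index := by
      rw [hk]; exact index_comap_of_surjective _ (QuotientGroup.mk'_surjective _)
    have i2 := card_mul_index π.ker
    have i3 := card_mul_index B
    have i4 := card_eq_card_quotient_mul_card_subgroup (pCore 2 L)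
    rw [← i3, ← i2, i1, ha, hc] at i4
    have i5 : B.index ≠ 0 := index_ne_zero_of_finite
    apply Nat.eq_of_mul_eq_mul_right (Nat.pos_of_ne_zero i5)
    rw [i4]; ring

variable {μ : N →* Equiv.Perm (Fin 3) × M24} {π : L →* Matrix.SpecialLinearGroup (Fin 3) (ZMod 2)}

theorem NL.finN (h : NL C N L μ π) : Finite N :=
  fin_of_rel h.fin (by rw [h.hNC]; norm_num)

theorem NL.finL (h : NL C N L μ π) : Finite L :=
  fin_of_rel h.fin (by rw [h.hLC]; norm_num)

theorem NL.ker_le (h : NL C N L μ π) : μ.ker ≤ C.subgroupOf N := by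
  haveI := h.finN
  haveI : Fact (Nat.Prime 2) := ⟨Nat.prime_two⟩
  apply CL.normal_le_of_coprime_index
  obtain ⟨a, ha⟩ := IsPGroup.iff_card.1 h.μk
  have : (C.subgroupOf N).index = 3 := h.hNC
  rw [ha, this]
  exact Nat.Coprime.pow_left _ (by norm_num)

theorem NL.X_le (h : NL C N L μ π) (x : N) (e : (μ x).1 = 1) : (x : G) ∈ C := by
  haveI := h.finN
  haveI := Cfsg.Agent.S0365.result
  set D := C.subgroupOf N with hD
  have hi : D.index = 3 := h.hNC
  have h6 : D.normalCore.index ∣ 6 := by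
    have : D.normalCore.index ∣ D.index.factorial := by
      rw [normalCore_eq_ker, index_ker, index_eq_card, ← Nat.card_perm]
      exact card_subgroup_dvd_card (MulAction.toPermHom N (N ⧸ D)).range
    rwa [hi] at this
  haveI hn : (D.normalCore.map μ).Normal := Normal.map inferInstance μ h.μs
  let K : Subgroup M24 := (D.normalCore.map μ).comap (MonoidHom.inr _ _)
  have hK : K.index ∣ 6 := by
    have h1 : K.index ∣ (D.normalCore.map μ).index := by
      rw [index_comap]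
      exact relIndex_dvd_index_of_normal _ _
    exact h1.trans ((index_map_dvd _ h.μs).trans h6)
  have hT : K = ⊤ := by
    rcases (inferInstance : K.Normal).eq_bot_or_eq_top with e | e
    · rw [e, index_bot, Golay.card_M24] at hK
      norm_num at hK
    · exact e
  have : (μ x).2 ∈ K := hT ▸ mem_top _
  obtain ⟨k, hk, ek⟩ := this
  have h1 : k⁻¹ * x ∈ μ.ker := by
    rw [MonoidHom.mem_ker, map_mul, map_inv, ek, inv_mul_eq_one]
    exact Prod.ext e.symm rfl
  have h2 : k * (k⁻¹ * x) ∈ D := mul_mem (normalCore_le D hk) (h.ker_le h1)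
  rw [mul_inv_cancel_left] at h2
  exact h2

theorem NL.psi_surj (h : NL C N L μ π) : Function.Surjective ((MonoidHom.fst _ _).comp μ) :=
  Prod.fst_surjective.comp h.μs

theorem NL.exists_h (h : NL C N L μ π) : ∃ x : N, (x : G) ∈ C ∧ (μ x).1 ≠ 1 := by
  by_contra hc
  push Not at hc
  have hle : C.subgroupOf N ≤ ((MonoidHom.fst _ _).comp μ).ker := fun x hx => hc x hx
  have h1 := index_dvd_of_le hle
  have hi : (C.subgroupOf N).index = 3 := h.hNC
  rw [hi, index_ker, MonoidHom.range_eq_top.2 h.psi_surj, card_top, Nat.card_perm] at h1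
  simp [Nat.factorial] at h1

theorem NL.max (h : NL C N L μ π) {S : Subgroup G} (h1 : N ⊓ C ≤ S) {n : G} (hn : n ∈ N) (hc : n ∉ C)
    (hs : n ∈ S) : N ≤ S := by
  have hle : C.subgroupOf N ≤ S.subgroupOf N := fun x hx => h1 ⟨x.2, hx⟩
  rcases eq_or_top Nat.prime_three h.hNC hle with e | e
  · have : (⟨n, hn⟩ : N) ∈ S.subgroupOf N := hs
    rw [e] at this
    exact absurd this hc
  · exact subgroupOf_eq_top.1 e

theorem NL.ne (h : NL C N L μ π) : C.subgroupOf L ≠ N.subgroupOf L := by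
  intro e
  have h1 : (N ⊓ C).subgroupOf L = C.subgroupOf L := by
    rw [subgroupOf, comap_inf]
    change N.subgroupOf L ⊓ C.subgroupOf L = _
    rw [← e, inf_idem]
  have h2 : ((N ⊓ C).subgroupOf L).index = 21 := h.hLNC
  have h3 : (C.subgroupOf L).index = 7 := h.hLC
  rw [h1, h3] at h2
  omega

theorem NL.sup_top (h : NL C N L μ π) {K : Subgroup L} (h1 : C.subgroupOf L ≤ K) (h2 : N.subgroupOf L ≤ K) :
    K = ⊤ := by
  have p7 : Nat.Prime 7 := by norm_num
  rcases eq_or_top p7 h.hLC h1 with e | e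
  · rcases eq_or_top p7 h.hLN h2 with e' | e'
    · exact absurd (e.symm.trans e') h.ne
    · exact e'
  · exact e

theorem NL.gen (h : NL C N L μ π) (top : C ⊔ N ⊔ L = ⊤) {n : G} (hn : n ∈ N) (hc : n ∉ C) :
    C ⊔ zpowers n = ⊤ := by
  have h1 : N ≤ C ⊔ zpowers n :=
    h.max (inf_le_right.trans le_sup_left) hn hc (mem_sup_right (mem_zpowers n))
  have h2 : L ≤ C ⊔ zpowers n := subgroupOf_eq_top.1
    (h.sup_top (K := (C ⊔ zpowers n).subgroupOf L) (fun x hx => mem_sup_left hx) (fun x hx => h1 hx))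
  rw [eq_top_iff, ← top]
  exact sup_le (sup_le le_sup_left h1) h2

theorem NL.kerC (h : NL C N L μ π) : π.ker ≤ C.subgroupOf L := by
  haveI := h.finL
  apply CL.normal_le_of_coprime_index
  obtain ⟨a, ha⟩ := h.πk
  have : (C.subgroupOf L).index = 7 := h.hLC
  rw [ha, this]
  exact Nat.Coprime.mul_left (Nat.Coprime.pow_left _ (by norm_num)) (by norm_num)

theorem NL.kerN (h : NL C N L μ π) : π.ker ≤ N.subgroupOf L := by
  haveI := h.finL
  apply CL.normal_le_of_coprime_index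
  obtain ⟨a, ha⟩ := h.πk
  have : (N.subgroupOf L).index = 7 := h.hLN
  rw [ha, this]
  exact Nat.Coprime.mul_left (Nat.Coprime.pow_left _ (by norm_num)) (by norm_num)

theorem NL.ker_index (h : NL C N L μ π) : π.ker.index = 168 := by
  rw [index_ker, MonoidHom.range_eq_top.2 h.πs, card_top, CL.MT.C7.card_L]

theorem NL.card24 (h : NL C N L μ π) {K : Subgroup L} (hk : π.ker ≤ K) (hi : K.index = 7) :
    Nat.card (K.map π) = 24 := by
  have h1 := card_mul_index (K.map π)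
  rw [index_map_eq _ h.πs hk, hi, CL.MT.C7.card_L] at h1
  omega

theorem NL.exists_d0 (h : NL C N L μ π) : ∃ d : N, (d : G) ∈ L ∧ d ^ 3 = 1 ∧ μ d = (finRotate 3, 1) := by
  haveI := h.finN
  haveI := h.finL
  haveI : Fact (Nat.Prime 3) := ⟨Nat.prime_three⟩
  haveI : Fact (Nat.Prime 2) := ⟨Nat.prime_two⟩
  have c1 : 3 ^ 4 ∣ Nat.card (N.subgroupOf L) := by
    obtain ⟨a, ha⟩ := h.πk
    have h1 := card_mul_index π.ker
    have h2 := card_mul_index (N.subgroupOf L)
    have h3 : (N.subgroupOf L).index = 7 := h.hLN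
    rw [h3, ← h1, ha, h.ker_index] at h2
    have : Nat.card (N.subgroupOf L) = 3 ^ 4 * (2 ^ a * 640) := by omega
    exact ⟨_, this⟩
  have c2 : Nat.card (L.subgroupOf N) = Nat.card (N.subgroupOf L) := by
    rw [← card_map_of_injective (K := L.subgroupOf N) N.subtype_injective,
      ← card_map_of_injective (K := N.subgroupOf L) L.subtype_injective, subgroupOf_map_subtype,
      subgroupOf_map_subtype, inf_comm]
  obtain ⟨K, hK⟩ := Sylow.exists_subgroup_card_pow_prime (G := L.subgroupOf N) 3 (c2 ▸ c1)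
  set P : Subgroup N := K.map (L.subgroupOf N).subtype with hP
  have cP : Nat.card P = 3 ^ 4 := by rw [hP, card_map_of_injective (subtype_injective _), hK]
  have pP : IsPGroup 3 P := IsPGroup.of_card cP
  have PL : P ≤ L.subgroupOf N := map_subtype_le _
  have dis : Disjoint P μ.ker := IsPGroup.disjoint_of_ne 3 2 (by norm_num) _ _ pP h.μk
  have cP' : Nat.card (P.map μ) = 3 ^ 4 := by
    have h1 : Function.Injective (μ.comp P.subtype) := by
      rw [← MonoidHom.ker_eq_bot_iff, eq_bot_iff]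
      intro x hx
      exact mem_bot.2 (Subtype.ext (mem_bot.1 (dis.le_bot ⟨x.2, hx⟩)))
    rw [← cP, ← range_subtype P, ← MonoidHom.range_comp, range_subtype]
    exact Nat.card_congr (MonoidHom.ofInjective h1).toEquiv.symm
  let A : Subgroup (Equiv.Perm (Fin 3) × M24) := (alternatingGroup (Fin 3)).prod ⊥
  haveI : A.Normal := prod_normal _ _
  have pA : IsPGroup 3 A := by
    rintro ⟨⟨σ, m⟩, hσ, hm⟩
    refine ⟨1, Subtype.ext (Prod.ext ?_ ?_)⟩
    · have : ∀ σ : Equiv.Perm (Fin 3), Equiv.Perm.sign σ = 1 → σ ^ 3 ^ 1 = 1 := by decide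
      exact this σ hσ
    · have : m = 1 := hm
      simp [this]
  have pS : IsPGroup 3 ↥(P.map μ ⊔ A) := IsPGroup.to_sup_of_normal_right (pP.map μ) pA
  obtain ⟨k, hk⟩ := IsPGroup.iff_card.1 pS
  have h3 : 3 ^ k ∣ 6 * 244823040 := by
    have := card_subgroup_dvd_card (P.map μ ⊔ A)
    rwa [hk, Nat.card_prod, Nat.card_perm, Golay.card_M24, Nat.card_fin] at this
  have h4 : k ≤ 4 := by
    by_contra hc
    have : 3 ^ 5 ∣ 6 * 244823040 := (pow_dvd_pow 3 (by omega)).trans h3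
    omega
  have h5 : P.map μ = P.map μ ⊔ A := eq_of_le_of_card_ge le_sup_left (by
    rw [hk, cP']; exact Nat.pow_le_pow_right (by norm_num) h4)
  have h6 : (finRotate 3, (1 : M24)) ∈ P.map μ := by
    rw [h5]
    refine mem_sup_right ⟨?_, mem_bot.2 rfl⟩
    change Equiv.Perm.sign (finRotate 3) = 1
    decide
  obtain ⟨d, hd, ed⟩ := h6
  refine ⟨d, PL hd, mem_bot.1 (dis.le_bot ⟨pow_mem hd 3, ?_⟩), ed⟩
  change μ (d ^ 3) = 1
  rw [map_pow, ed]
  exact Prod.ext (by change finRotate 3 ^ 3 = 1; decide) (by simp)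

theorem NL.exists_d (h : NL C N L μ π) : ∃ d : N, (d : G) ∈ L ∧ d ^ 3 = 1 ∧ (μ d).2 = 1 ∧ (d : G) ∉ C ∧
    ∀ Q : Subgroup G, Q ≤ C → IsPGroup 2 Q → (∀ c ∈ C, ∀ q ∈ Q, c * q * c⁻¹ ∈ Q) →
      ∃ x : N, μ x = 1 ∧ (d * x * d⁻¹ * x⁻¹ : G) ∉ Q := by
  haveI := h.finN
  haveI := h.finL
  haveI : Fact (Nat.Prime 3) := ⟨Nat.prime_three⟩
  haveI : Fact (Nat.Prime 2) := ⟨Nat.prime_two⟩
  obtain ⟨d, dL, d3, ed⟩ := h.exists_d0
  have dC : (d : G) ∉ C := by
    intro hc
    set ψ := (MonoidHom.fst _ _).comp μ with hψ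
    have h1 := card_mul_index ((C.subgroupOf N).map ψ)
    have hi : (C.subgroupOf N).index = 3 := h.hNC
    rw [index_map_eq _ h.psi_surj (fun x hx => h.X_le x hx), hi, Nat.card_perm, Nat.card_fin] at h1
    have h2 : Nat.card ((C.subgroupOf N).map ψ) = 2 := by
      simp only [Nat.factorial] at h1; omega
    have h3 : finRotate 3 ∈ (C.subgroupOf N).map ψ := ⟨d, hc, by simp [hψ, ed]⟩
    have h4 := pow_card_eq_one' (G := (C.subgroupOf N).map ψ) (x := ⟨_, h3⟩)
    rw [h2] at h4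
    have h5 : finRotate 3 ^ 2 = 1 := congrArg Subtype.val h4
    revert h5
    decide
  refine ⟨d, dL, d3, by rw [ed], dC, ?_⟩
  intro Q QC pQ nQ
  by_contra hc
  push Not at hc
  let d' : L := ⟨d, dL⟩
  obtain ⟨e, he⟩ : ∃ e, π d' = e := ⟨_, rfl⟩
  have e3 : e ^ 3 = 1 := by
    rw [← he, ← map_pow]
    have : d' ^ 3 = 1 := Subtype.ext (congrArg (fun t : N => (t : G)) d3)
    rw [this, map_one]
  have e1 : e ≠ 1 := fun e1 => dC (h.kerC (x := d') (he.trans e1))
  set Y1 := (C.subgroupOf L).map π with hY1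
  set Y2 := (N.subgroupOf L).map π with hY2
  have c1 : Nat.card Y1 = 24 := h.card24 h.kerC h.hLC
  have c2 : Nat.card Y2 = 24 := h.card24 h.kerN h.hLN
  set T := ((μ.ker.map N.subtype).subgroupOf L).map π with hT
  set R := (Q.subgroupOf L).map π with hR
  have mT : ∀ (n : N) (hn : (n : G) ∈ L), μ n = 1 → π ⟨n, hn⟩ ∈ T := fun n hn e =>
    ⟨⟨n, hn⟩, ⟨n, e, rfl⟩, rfl⟩
  have pT : IsPGroup 2 T := ((h.μk.map _).comap_subtype).map _
  have pR : IsPGroup 2 R := (pQ.comap_subtype).map _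
  have TY : T ≤ Y2 := map_mono (fun x hx => (map_subtype_le μ.ker hx : (x : G) ∈ N))
  have RY : R ≤ Y1 := map_mono (fun x hx => QC hx)
  have nT : ∀ y ∈ Y2, ∀ t ∈ T, y * t * y⁻¹ ∈ T := by
    rintro _ ⟨l, hl, rfl⟩ _ ⟨t, ⟨n, hn, en⟩, rfl⟩
    rw [← map_inv, ← map_mul, ← map_mul]
    refine ⟨_, ⟨⟨l, hl⟩ * n * ⟨l, hl⟩⁻¹, (MonoidHom.normal_ker μ).conj_mem n hn _, ?_⟩, rfl⟩
    have en' : (n : G) = t := en
    simp [en']
  have nR : ∀ y ∈ Y1, ∀ t ∈ R, y * t * y⁻¹ ∈ R := by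
    rintro _ ⟨l, hl, rfl⟩ _ ⟨t, ht, rfl⟩
    rw [← map_inv, ← map_mul, ← map_mul]
    exact ⟨_, nQ l hl t ht, rfl⟩
  have eY : e ∈ Y2 := ⟨d', d.2, he⟩
  have inj : ∀ {K : Subgroup S3}, IsPGroup 2 K → ∀ x ∈ K, ∀ y ∈ K, x * e * x⁻¹ = y * e * y⁻¹ → x = y := by
    intro K pK x hx y hy exy
    have := F2' pK (mul_mem (inv_mem hy) hx) (y := e) (by
      calc y⁻¹ * x * e = y⁻¹ * (x * e * x⁻¹) * x := by group
        _ = e * (y⁻¹ * x) := by rw [exy]; group) e3 e1
    exact (inv_mul_eq_one.1 this).symm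
  have T1 : Nat.card T ≠ 1 := by
    intro t1
    have tb : T = ⊥ := card_eq_one.1 t1
    obtain ⟨K, hK⟩ := Sylow.exists_subgroup_card_pow_prime (G := Y2) 2 (n := 2) (by rw [c2]; norm_num)
    have cK : Nat.card (K.map Y2.subtype) = 2 ^ 2 := by rw [card_map_of_injective (subtype_injective _), hK]
    have hle := Set.ncard_le_ncard_of_injOn (s := (K.map Y2.subtype : Set S3)) (t := {e, e⁻¹})
      (fun x => x * e * x⁻¹) ?_ (fun x hx y hy exy => inj (IsPGroup.of_card cK) x hx y hy exy) (Set.toFinite _)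
    · have h1 : (K.map Y2.subtype : Set S3).ncard = 4 := by
        rw [← Nat.card_coe_set_eq]; exact cK
      have h2 : ({e, e⁻¹} : Set S3).ncard ≤ 2 := by
        have := Set.ncard_insert_le e ({e⁻¹} : Set S3)
        rwa [Set.ncard_singleton] at this
      omega
    · intro x hx
      obtain ⟨l, hl, rfl⟩ := map_subtype_le K hx
      let n : N := ⟨l, hl⟩
      have key : ∀ σ : Equiv.Perm (Fin 3), σ * finRotate 3 * σ⁻¹ * (finRotate 3)⁻¹ = 1 ∨
          σ * finRotate 3 * σ⁻¹ * finRotate 3 = 1 := by decide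
      rcases key (μ n).1 with k | k
      · left
        have := mT (n * d * n⁻¹ * d⁻¹) (mul_mem (mul_mem (mul_mem l.2 dL) (inv_mem l.2)) (inv_mem dL)) (by
          rw [map_mul, map_mul, map_mul, map_inv, map_inv, ed]
          exact Prod.ext k (by simp))
        rw [tb, mem_bot] at this
        have e2 : π (l * d' * l⁻¹ * d'⁻¹) = 1 := this
        rw [map_mul, map_mul, map_mul, map_inv, map_inv, he, mul_inv_eq_one] at e2
        exact e2
      · right
        have := mT (n * d * n⁻¹ * d) (mul_mem (mul_mem (mul_mem l.2 dL) (inv_mem l.2)) dL) (by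
          rw [map_mul, map_mul, map_mul, map_inv, ed]
          exact Prod.ext k (by simp))
        rw [tb, mem_bot] at this
        have e2 : π (l * d' * l⁻¹ * d') = 1 := this
        rw [map_mul, map_mul, map_mul, map_inv, he, mul_eq_one_iff_eq_inv] at e2
        exact e2
  have T4 : Nat.card T = 4 := (card_fpf pT TY c2 e3 e1 (nT e eY)).resolve_left T1
  have TR : T ≤ R := by
    have hle := Set.ncard_le_ncard_of_injOn (s := (T : Set S3)) (t := ((T ⊓ R : Subgroup S3) : Set S3))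
      (fun x => e * x * e⁻¹ * x⁻¹) ?_ ?_ (Set.toFinite _)
    · have : T ⊓ R = T := eq_of_le_of_card_ge inf_le_left (by
        rw [← Nat.card_coe_set_eq, ← Nat.card_coe_set_eq] at hle; exact hle)
      exact inf_eq_left.1 this
    · intro x hx
      refine mem_inf.2 ⟨T.mul_mem (nT e eY x hx) (T.inv_mem hx), ?_⟩
      obtain ⟨t, ⟨n, hn, en⟩, rfl⟩ := hx
      have en' : (n : G) = t := en
      refine ⟨d' * t * d'⁻¹ * t⁻¹, ?_, by rw [map_mul, map_mul, map_mul, map_inv, map_inv, he]⟩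
      have : (d : G) * n * (d : G)⁻¹ * (n : G)⁻¹ ∈ Q := hc n hn
      rw [en'] at this
      exact this
    · intro x hx y hy exy
      apply inj pT x hx y hy
      have exy' : e * x * e⁻¹ * x⁻¹ = e * y * e⁻¹ * y⁻¹ := exy
      calc x * e * x⁻¹ = (e * x * e⁻¹ * x⁻¹)⁻¹ * e := by group
        _ = y * e * y⁻¹ := by rw [exy']; group
  obtain ⟨f, hf⟩ := exists_prime_orderOf_dvd_card' (G := Y1) 3 (by rw [c1]; norm_num)
  have f3 : (f : S3) ^ 3 = 1 := by
    have := pow_orderOf_eq_one f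
    rw [hf] at this
    exact congrArg Subtype.val this
  have f1 : (f : S3) ≠ 1 := by
    intro f1
    have : f = 1 := Subtype.ext f1
    rw [this, orderOf_one] at hf
    omega
  have R4 : Nat.card R = 4 := by
    rcases card_fpf pR RY c1 f3 f1 (nR f f.2) with r | r
    · have := card_dvd_of_le TR
      rw [r, T4] at this
      omega
    · exact r
  have eTR : T = R := eq_of_le_of_card_ge TR (by rw [T4, R4])
  have top : (normalizer (T : Set S3)).comap π = ⊤ := by
    apply h.sup_top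
    · intro x hx
      have := mem_normalizer_fintype (S := (R : Set S3)) (nR (π x) ⟨x, hx, rfl⟩)
      rw [← eTR] at this
      exact this
    · intro x hx
      exact mem_normalizer_fintype (S := (T : Set S3)) (nT (π x) ⟨x, hx, rfl⟩)
  have nor : T.Normal := by
    rw [← normalizer_eq_top_iff, eq_top_iff]
    intro y _
    obtain ⟨x, rfl⟩ := h.πs y
    have : x ∈ (normalizer (T : Set S3)).comap π := top ▸ mem_top x
    exact this
  haveI := CL.MT.C7.simple_L
  rcases nor.eq_bot_or_eq_top with b | b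
  · rw [b, card_bot] at T4; omega
  · rw [b, card_top, CL.MT.C7.card_L] at T4; omega

theorem NLx.seven {Ω : Set G} (h7 : Ω.ncard = 7) {z a b c : G} (z1 : z ≠ 1) (z2 : z * z = 1)
    (mz : z ∈ Ω) (ma : a ∈ Ω) (mb : b ∈ Ω) (mc : c ∈ Ω) (ma' : a * z ∈ Ω) (mb' : b * z ∈ Ω) (mc' : c * z ∈ Ω)
    (a1 : a ≠ 1) (b1 : b ≠ 1) (c1 : c ≠ 1) (az : a ≠ z) (bz : b ≠ z) (cz : c ≠ z)
    (ab : a ≠ b) (ab' : a ≠ b * z) (ac : a ≠ c) (ac' : a ≠ c * z) (bc : b ≠ c) (bc' : b ≠ c * z) :
    ∀ w ∈ Ω, w = z ∨ w = a ∨ w = a * z ∨ w = b ∨ w = b * z ∨ w = c ∨ w = c * z := by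
  classical
  have sw : ∀ x y : G, x ≠ y * z → x * z ≠ y := fun x y h e => h (by rw [← e, mul_assoc, z2, mul_one])
  have nd : [z, a, a * z, b, b * z, c, c * z].Nodup := by
    simp [z1, a1, b1, c1, az.symm, bz.symm, cz.symm, ab, ab', ac, ac', bc, bc', sw _ _ ab', sw _ _ ac',
      sw _ _ bc']
  have hs : (([z, a, a * z, b, b * z, c, c * z].toFinset : Finset G) : Set G) = Ω := by
    apply Set.eq_of_subset_of_ncard_le
    · intro w hw
      simp only [List.coe_toFinset, List.mem_cons, List.not_mem_nil, or_false, Set.mem_ofPred_eq] at hw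
      rcases hw with rfl | rfl | rfl | rfl | rfl | rfl | rfl <;> assumption
    · rw [h7, Set.ncard_coe_finset, List.toFinset_card_of_nodup nd]
      rfl
    · exact Set.finite_of_ncard_ne_zero (by omega)
  intro w hw
  rw [← hs] at hw
  simpa using hw

theorem NL.core (h : NL C N L μ π) : (C.subgroupOf L).normalCore = π.ker := by
  haveI := CL.MT.C7.simple_L
  refine le_antisymm ?_ (normal_le_normalCore.2 h.kerC)
  have nor : ((C.subgroupOf L).normalCore.map π).Normal := Normal.map inferInstance π h.πs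
  rcases nor.eq_bot_or_eq_top with b | b
  · exact (Subgroup.map_eq_bot_iff _).1 b
  · have h1 : (C.subgroupOf L).map π = ⊤ := by
      rw [eq_top_iff, ← b]; exact map_mono (normalCore_le _)
    have h2 := h.card24 h.kerC h.hLC
    rw [h1, card_top, CL.MT.C7.card_L] at h2
    omega

theorem NL.exists_w (h : NL C N L μ π) {z j d : G} (hd : d ∈ L) (zc : ∀ c ∈ C, c * z = z * c)
    (z1 : z ≠ 1) (z2 : z * z = 1) (jz : j ≠ z) (jC : j ∈ C) (dz : d * z * d⁻¹ = j) (dj : d * j * d⁻¹ = j * z)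
    (hV : ∀ n ∈ N, ∀ v ∈ ({z, j, j * z} : Set G), n * v * n⁻¹ ∈ ({z, j, j * z} : Set G)) :
    ∃ a ∈ N, ∃ b ∈ C, ∃ j', a * z * a⁻¹ = j ∧ a * j * a⁻¹ = z ∧ a * j' * a⁻¹ = j' ∧ b * j * b⁻¹ = j' ∧
      b * j' * b⁻¹ = j ∧ j * j' = j' * j ∧ j' ≠ j ∧ j' ≠ j * z ∧ (a * b) ^ 3 ∈ C := by
  classical
  haveI := h.finL
  have p7 : Nat.Prime 7 := by norm_num
  have zc' : ∀ c ∈ C, c * z * c⁻¹ = z := fun c hc => by rw [zc c hc, mul_inv_cancel_right]
  have hCz : ∀ l ∈ L, l * z * l⁻¹ = z → l ∈ C := by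
    have hle : C.subgroupOf L ≤ (centralizer {z}).subgroupOf L := fun x hx =>
      mem_centralizer_singleton_iff.2 (zc x hx)
    rcases eq_or_top p7 h.hLC hle with e | e
    · intro l hl el
      have : (⟨l, hl⟩ : L) ∈ (centralizer {z}).subgroupOf L :=
        mem_centralizer_singleton_iff.2 (mul_inv_eq_iff_eq_mul.1 el)
      rw [e] at this
      exact this
    · have : (⟨d, hd⟩ : L) ∈ (centralizer {z}).subgroupOf L := e ▸ mem_top _
      have h1 : d * z = z * d := mem_centralizer_singleton_iff.1 this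
      rw [h1, mul_inv_cancel_right] at dz
      exact absurd dz.symm jz
  set Ω : Set G := Set.range (fun l : L => (l : G) * z * (l : G)⁻¹) with hΩ
  have h7 : Ω.ncard = 7 := by
    rw [← (show (C.subgroupOf L).index = 7 from h.hLC)]
    apply ncard_range
    intro a b
    constructor
    · intro e
      apply hCz _ (a⁻¹ * b).2
      have e' : (a : G) * z * (a : G)⁻¹ = b * z * (b : G)⁻¹ := e
      change (a : G)⁻¹ * b * z * ((a : G)⁻¹ * b)⁻¹ = z
      calc (a : G)⁻¹ * b * z * ((a : G)⁻¹ * b)⁻¹ = (a : G)⁻¹ * (b * z * (b : G)⁻¹) * a := by group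
        _ = z := by rw [← e']; group
    · intro e
      have e' : (a : G)⁻¹ * b * z * ((a : G)⁻¹ * b)⁻¹ = z := zc' _ e
      change (a : G) * z * (a : G)⁻¹ = b * z * (b : G)⁻¹
      calc (a : G) * z * (a : G)⁻¹ = a * ((a : G)⁻¹ * b * z * ((a : G)⁻¹ * b)⁻¹) * (a : G)⁻¹ := by rw [e']
        _ = _ := by group
  have fΩ : Ω.Finite := Set.finite_of_ncard_ne_zero (by omega)
  have mz : z ∈ Ω := ⟨1, by simp⟩
  have cΩ : ∀ l ∈ L, ∀ w ∈ Ω, l * w * l⁻¹ ∈ Ω := by
    rintro l hl _ ⟨k, rfl⟩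
    exact ⟨⟨l, hl⟩ * k, by simp only [coe_mul]; group⟩
  have o1 : ∀ w ∈ Ω, w ≠ 1 := by
    rintro _ ⟨k, rfl⟩ e
    exact z1 (by simpa using e)
  have o2 : ∀ w ∈ Ω, w * w = 1 := by
    rintro _ ⟨k, rfl⟩
    calc (k : G) * z * (k : G)⁻¹ * (k * z * (k : G)⁻¹) = k * (z * z) * (k : G)⁻¹ := by group
      _ = 1 := by rw [z2]; group
  have mj : j ∈ Ω := dz ▸ cΩ d hd z mz
  have mjz : j * z ∈ Ω := dj ▸ cΩ d hd j mj
  have V3 : ({z, j, j * z} : Set G).ncard ≤ 3 := by
    have h1 := Set.ncard_insert_le z ({j, j * z} : Set G)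
    have h2 := Set.ncard_insert_le j ({j * z} : Set G)
    rw [Set.ncard_singleton] at h2
    omega
  have nV : ¬ Ω ⊆ ({z, j, j * z} : Set G) := fun hs => by
    have := Set.ncard_le_ncard hs
    omega
  have hNV : ∀ l ∈ L, (∀ v ∈ ({z, j, j * z} : Set G), l * v * l⁻¹ ∈ ({z, j, j * z} : Set G)) → l ∈ N := by
    have hle : N.subgroupOf L ≤ (normalizer ({z, j, j * z} : Set G)).subgroupOf L := fun x hx =>
      mem_normalizer_fintype (hV x hx)
    rcases eq_or_top p7 h.hLN hle with e | e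
    · intro l hl el
      have : (⟨l, hl⟩ : L) ∈ (normalizer ({z, j, j * z} : Set G)).subgroupOf L := mem_normalizer_fintype el
      rw [e] at this
      exact this
    · exfalso
      apply nV
      rintro _ ⟨k, rfl⟩
      have : k ∈ (normalizer ({z, j, j * z} : Set G)).subgroupOf L := e ▸ mem_top _
      exact (this z).1 (Or.inl rfl)
  have jzc : j * z = z * j := zc j jC
  have hN1 : ∀ l ∈ L, l ∈ C → (l * j * l⁻¹ = j ∨ l * j * l⁻¹ = j * z) → l ∈ N := by
    intro l hl hc e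
    apply hNV l hl
    have e2 : l * (j * z) * l⁻¹ = l * j * l⁻¹ * z := by
      calc l * (j * z) * l⁻¹ = l * j * l⁻¹ * (l * z * l⁻¹) := by group
        _ = _ := by rw [zc' l hc]
    rintro v (rfl | rfl | rfl)
    · exact Or.inl (zc' l hc)
    · exact Or.inr e
    · rw [e2]
      rcases e with e | e
      · rw [e]; exact Or.inr (Or.inr rfl)
      · rw [e, mul_assoc, z2, mul_one]; exact Or.inr (Or.inl rfl)
  -- three pairs
  have i3 : ((N.subgroupOf L).subgroupOf (C.subgroupOf L)).index = 3 := by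
    have h1 := relIndex_mul_index (show (N ⊓ C).subgroupOf L ≤ C.subgroupOf L from fun x hx => hx.2)
    have h2 : ((N ⊓ C).subgroupOf L).index = 21 := h.hLNC
    have h3 : (C.subgroupOf L).index = 7 := h.hLC
    have h4 : (N ⊓ C).subgroupOf L = N.subgroupOf L ⊓ C.subgroupOf L := rfl
    rw [h2, h3, h4, inf_relIndex_right] at h1
    change (N.subgroupOf L).relIndex (C.subgroupOf L) = 3
    omega
  have ex3 : ∃ a b c : C.subgroupOf L, ((a⁻¹ * b : C.subgroupOf L) : G) ∉ N ∧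
      ((a⁻¹ * c : C.subgroupOf L) : G) ∉ N ∧ ((b⁻¹ * c : C.subgroupOf L) : G) ∉ N := by
    letI := Fintype.ofFinite (C.subgroupOf L ⧸ (N.subgroupOf L).subgroupOf (C.subgroupOf L))
    rw [index_eq_card, Nat.card_eq_fintype_card] at i3
    obtain ⟨a, b, c, ab, ac, bc⟩ := Fintype.two_lt_card_iff.1 (i3 ▸ (by norm_num : 2 < 3))
    induction a using QuotientGroup.induction_on with | _ a =>
    induction b using QuotientGroup.induction_on with | _ b =>
    induction c using QuotientGroup.induction_on with | _ c =>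
    exact ⟨a, b, c, fun e => ab (QuotientGroup.eq.2 e), fun e => ac (QuotientGroup.eq.2 e),
      fun e => bc (QuotientGroup.eq.2 e)⟩
  have pr : ∀ a ∈ L, a ∈ C → ∀ b ∈ L, b ∈ C → a⁻¹ * b ∉ N →
      a * j * a⁻¹ ≠ b * j * b⁻¹ ∧ a * j * a⁻¹ ≠ b * j * b⁻¹ * z := by
    intro a aL aC b bL bC hn
    have hn' : b⁻¹ * a ∉ N := fun e => hn (by simpa using inv_mem e)
    constructor
    · intro e
      apply hn' (hN1 _ (mul_mem (inv_mem bL) aL) (mul_mem (inv_mem bC) aC) (Or.inl _))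
      calc b⁻¹ * a * j * (b⁻¹ * a)⁻¹ = b⁻¹ * (a * j * a⁻¹) * b := by group
        _ = j := by rw [e]; group
    · intro e
      apply hn' (hN1 _ (mul_mem (inv_mem bL) aL) (mul_mem (inv_mem bC) aC) (Or.inr _))
      calc b⁻¹ * a * j * (b⁻¹ * a)⁻¹ = b⁻¹ * (a * j * a⁻¹) * b := by group
        _ = j * (b⁻¹ * z * b⁻¹⁻¹) := by rw [e]; group
        _ = j * z := by rw [zc' _ (inv_mem bC)]
  have pa : ∀ a ∈ L, a ∈ C → a * j * a⁻¹ ∈ Ω ∧ a * j * a⁻¹ * z ∈ Ω ∧ a * j * a⁻¹ ≠ z ∧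
      a * j * a⁻¹ * z = z * (a * j * a⁻¹) := by
    intro a aL aC
    refine ⟨cΩ a aL j mj, ?_, ?_, zc _ (mul_mem (mul_mem aC jC) (inv_mem aC))⟩
    · have := cΩ a aL _ mjz
      have e2 : a * (j * z) * a⁻¹ = a * j * a⁻¹ * z := by
        calc a * (j * z) * a⁻¹ = a * j * a⁻¹ * (a * z * a⁻¹) := by group
          _ = _ := by rw [zc' a aC]
      rwa [e2] at this
    · intro e
      apply jz
      calc j = a⁻¹ * (a * j * a⁻¹) * a⁻¹⁻¹ := by group
        _ = z := by rw [e, zc' _ (inv_mem aC)]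
  have clz : ∀ w ∈ Ω, w ≠ z → w * z = z * w ∧ w * z ∈ Ω := by
    obtain ⟨a, b, c, ab, ac, bc⟩ := ex3
    obtain ⟨a1, a2, a3, a4⟩ := pa a a.1.2 a.2
    obtain ⟨b1, b2, b3, b4⟩ := pa b b.1.2 b.2
    obtain ⟨c1, c2, c3, c4⟩ := pa c c.1.2 c.2
    obtain ⟨ab1, ab2⟩ := pr a a.1.2 a.2 b b.1.2 b.2 ab
    obtain ⟨ac1, ac2⟩ := pr a a.1.2 a.2 c c.1.2 c.2 ac
    obtain ⟨bc1, bc2⟩ := pr b b.1.2 b.2 c c.1.2 c.2 bc
    have key : ∀ x ∈ Ω, x * z = z * x → x * z * z = z * (x * z) ∧ x * z * z ∈ Ω := fun x hx e =>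
      ⟨by rw [← mul_assoc, ← e], by rw [mul_assoc, z2, mul_one]; exact hx⟩
    intro w hw wz
    rcases seven h7 z1 z2 mz a1 b1 c1 a2 b2 c2 (o1 _ a1) (o1 _ b1) (o1 _ c1) a3 b3 c3 ab1 ab2 ac1 ac2 bc1 bc2
      w hw with e | e | e | e | e | e | e
    · exact absurd e wz
    · rw [e]; exact ⟨a4, a2⟩
    · rw [e]; exact key _ a1 a4
    · rw [e]; exact ⟨b4, b2⟩
    · rw [e]; exact key _ b1 b4
    · rw [e]; exact ⟨c4, c2⟩
    · rw [e]; exact key _ c1 c4
  have cl : ∀ u ∈ Ω, ∀ w ∈ Ω, u ≠ w → u * w = w * u ∧ u * w ∈ Ω := by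
    rintro u hu _ ⟨k, rfl⟩ ne
    have h1 := cΩ _ (inv_mem k.2) u hu
    obtain ⟨h2, h3⟩ := clz _ h1 (fun e => ne (by rw [← e]; group))
    constructor
    · calc u * ((k : G) * z * (k : G)⁻¹) = k * ((k : G)⁻¹ * u * (k : G)⁻¹⁻¹ * z) * (k : G)⁻¹ := by group
        _ = _ := by rw [h2]; group
    · have := cΩ _ k.2 _ h3
      have e : u * ((k : G) * z * (k : G)⁻¹) = k * ((k : G)⁻¹ * u * (k : G)⁻¹⁻¹ * z) * (k : G)⁻¹ := by group
      rw [e]
      exact this
  obtain ⟨j', mj', nj'⟩ := Set.not_subset.1 nV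
  have j'z : j' ≠ z := fun e => nj' (Or.inl e)
  have j'j : j' ≠ j := fun e => nj' (Or.inr (Or.inl e))
  have j'jz : j' ≠ j * z := fun e => nj' (Or.inr (Or.inr e))
  obtain ⟨cj, mjj⟩ := cl j mj j' mj' j'j.symm
  obtain ⟨cz', mj'z⟩ := clz j' mj' j'z
  have jj := o2 j mj
  have jj' := o2 j' mj'
  have n1 : j * j' ≠ z := fun e => j'jz (by rw [← e, ← mul_assoc, jj, one_mul])
  have n2 : j ≠ j' * z := fun e => j'jz (by rw [e, mul_assoc, z2, mul_one])
  have all := seven h7 z1 z2 mz mj mj' mjj mjz mj'z (clz _ mjj n1).2 (o1 _ mj) (o1 _ mj') (o1 _ mjj) jz j'z n1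
    j'j.symm n2 (by simpa using o1 _ mj') (by rw [mul_assoc]; simpa using o1 _ mj'z) (by simpa using o1 _ mj)
    (by rw [cj, mul_assoc]; simpa using o1 _ mjz)
  have stab : ∀ l : L, l ∈ π.ker ↔ (l : G) * z * (l : G)⁻¹ = z ∧ (l : G) * j * (l : G)⁻¹ = j ∧
      (l : G) * j' * (l : G)⁻¹ = j' := by
    intro l
    constructor
    · intro hl
      have : ∀ w ∈ Ω, (l : G) * w * (l : G)⁻¹ = w := by
        rintro _ ⟨k, rfl⟩
        have h1 : ((k⁻¹ * l * k⁻¹⁻¹ : L) : G) ∈ C := h.kerC ((MonoidHom.normal_ker π).conj_mem l hl k⁻¹)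
        have h2 : (k : G)⁻¹ * l * (k : G)⁻¹⁻¹ * z * ((k : G)⁻¹ * l * (k : G)⁻¹⁻¹)⁻¹ = z := zc' _ h1
        calc (l : G) * (k * z * (k : G)⁻¹) * (l : G)⁻¹ =
            k * ((k : G)⁻¹ * l * (k : G)⁻¹⁻¹ * z * ((k : G)⁻¹ * l * (k : G)⁻¹⁻¹)⁻¹) * (k : G)⁻¹ := by group
          _ = _ := by rw [h2]
      exact ⟨this z mz, this j mj, this j' mj'⟩
    · rintro ⟨e1, e2, e3⟩
      have mu : ∀ x y : G, (l : G) * x * (l : G)⁻¹ = x → (l : G) * y * (l : G)⁻¹ = y →
          (l : G) * (x * y) * (l : G)⁻¹ = x * y := fun x y ex ey => by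
        calc (l : G) * (x * y) * (l : G)⁻¹ = (l * x * (l : G)⁻¹) * (l * y * (l : G)⁻¹) := by group
          _ = _ := by rw [ex, ey]
      have : ∀ w ∈ Ω, (l : G) * w * (l : G)⁻¹ = w := by
        intro w hw
        rcases all w hw with e | e | e | e | e | e | e <;> rw [e]
        exacts [e1, e2, mu _ _ e2 e1, e3, mu _ _ e3 e1, mu _ _ e2 e3, mu _ _ (mu _ _ e2 e3) e1]
      rw [← h.core]
      intro k
      apply hCz _ (k * l * k⁻¹).2
      have h1 := this _ (cΩ _ (inv_mem k.2) z mz)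
      change (k : G) * l * (k : G)⁻¹ * z * ((k : G) * l * (k : G)⁻¹)⁻¹ = z
      calc (k : G) * l * (k : G)⁻¹ * z * ((k : G) * l * (k : G)⁻¹)⁻¹ =
          k * (l * ((k : G)⁻¹ * z * (k : G)⁻¹⁻¹) * (l : G)⁻¹) * (k : G)⁻¹ := by group
        _ = z := by rw [h1]; group
  let f : L → Σ _ : G, Σ _ : G, G := fun l =>
    ⟨(l : G) * z * (l : G)⁻¹, (l : G) * j * (l : G)⁻¹, (l : G) * j' * (l : G)⁻¹⟩
  have cv : ∀ a b x : G, a * x * a⁻¹ = b * x * b⁻¹ ↔ a⁻¹ * b * x * (a⁻¹ * b)⁻¹ = x := by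
    intro a b x
    constructor
    · intro e
      calc a⁻¹ * b * x * (a⁻¹ * b)⁻¹ = a⁻¹ * (b * x * b⁻¹) * a := by group
        _ = x := by rw [← e]; group
    · intro e
      calc a * x * a⁻¹ = a * (a⁻¹ * b * x * (a⁻¹ * b)⁻¹) * a⁻¹ := by rw [e]
        _ = _ := by group
  have c168 : (Set.range f).ncard = 168 := by
    rw [← h.ker_index]
    apply ncard_range
    intro a b
    rw [stab]
    simp only [f, Sigma.mk.inj_iff, heq_eq_eq, cv, coe_mul, coe_inv]
  let O : Finset G := fΩ.toFinset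
  have mO : ∀ w, w ∈ O ↔ w ∈ Ω := fun w => fΩ.mem_toFinset
  have cO : O.card = 7 := by rw [← h7, Set.ncard_eq_toFinset_card Ω fΩ]
  let B : Finset (Σ _ : G, Σ _ : G, G) := O.sigma fun u => (O.erase u).sigma fun v => O \ {u, v, u * v}
  have cB : B.card = 168 := by
    have : ∀ u ∈ O, ((O.erase u).sigma fun v => O \ {u, v, u * v}).card = 24 := by
      intro u hu
      have : ∀ v ∈ O.erase u, (O \ {u, v, u * v}).card = 4 := by
        intro v hv
        obtain ⟨vu, hv⟩ := Finset.mem_erase.1 hv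
        have u1 := o1 u ((mO u).1 hu)
        have v1 := o1 v ((mO v).1 hv)
        rw [Finset.card_sdiff_of_subset, cO, Finset.card_eq_three.2 ⟨u, v, u * v, vu.symm, by simpa using v1,
          by simpa using u1, rfl⟩]
        intro w hw
        simp only [Finset.mem_insert, Finset.mem_singleton] at hw
        rcases hw with rfl | rfl | rfl
        exacts [hu, hv, (mO _).2 (cl _ ((mO _).1 hu) _ ((mO _).1 hv) vu.symm).2]
      rw [Finset.card_sigma, Finset.sum_congr rfl this, Finset.sum_const, Finset.card_erase_of_mem hu, cO]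
      rfl
    rw [Finset.card_sigma, Finset.sum_congr rfl this, Finset.sum_const, cO]
    rfl
  have mB : ∀ u v w : G, (⟨u, v, w⟩ : Σ _ : G, Σ _ : G, G) ∈ B ↔
      u ∈ Ω ∧ (v ≠ u ∧ v ∈ Ω) ∧ w ∈ Ω ∧ w ≠ u ∧ w ≠ v ∧ w ≠ u * v := by
    intro u v w
    simp only [B, Finset.mem_sigma, Finset.mem_erase, Finset.mem_sdiff, Finset.mem_insert,
      Finset.mem_singleton, not_or, mO, ne_eq]
  have eB : Set.range f = (B : Set (Σ _ : G, Σ _ : G, G)) := by
    apply Set.eq_of_subset_of_ncard_le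
    · rintro _ ⟨l, rfl⟩
      refine (mB _ _ _).2 ⟨cΩ _ l.2 _ mz, ⟨by simpa using jz, cΩ _ l.2 _ mj⟩, cΩ _ l.2 _ mj', by simpa using j'z,
        by simpa using j'j, fun e => j'jz ?_⟩
      calc j' = (l : G)⁻¹ * (l * j' * (l : G)⁻¹) * l := by group
        _ = z * j := by rw [e]; group
        _ = j * z := jzc.symm
    · rw [c168, Set.ncard_coe_finset, cB]
    · exact B.finite_toSet
  have ha : (⟨j, z, j'⟩ : Σ _ : G, Σ _ : G, G) ∈ Set.range f := by
    rw [eB]
    exact (mB _ _ _).2 ⟨mj, ⟨jz.symm, mz⟩, mj', j'j, j'z, j'jz⟩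
  have hb : (⟨z, j', j⟩ : Σ _ : G, Σ _ : G, G) ∈ Set.range f := by
    rw [eB]
    exact (mB _ _ _).2 ⟨mz, ⟨j'z, mj'⟩, mj, jz, j'j.symm, by rw [← cz']; exact n2⟩
  obtain ⟨a, ha⟩ := ha
  obtain ⟨b, hb⟩ := hb
  simp only [f, Sigma.mk.inj_iff, heq_eq_eq] at ha hb
  obtain ⟨a1, a2, a3⟩ := ha
  obtain ⟨b1, b2, b3⟩ := hb
  refine ⟨a, hNV a a.2 ?_, b, hCz b b.2 b1, j', a1, a2, a3, b2, b3, cj, j'j, j'jz,
    hCz _ (pow_mem (mul_mem a.2 b.2) 3) ?_⟩
  · rintro v (rfl | rfl | rfl)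
    · exact Or.inr (Or.inl a1)
    · exact Or.inl a2
    · refine Or.inr (Or.inr ?_)
      calc (a : G) * (j * z) * (a : G)⁻¹ = (a * j * (a : G)⁻¹) * (a * z * (a : G)⁻¹) := by group
        _ = j * z := by rw [a1, a2, jzc]
  · calc ((a : G) * b) ^ 3 * z * (((a : G) * b) ^ 3)⁻¹ = a * (b * (a * (b * (a * (b * z * (b : G)⁻¹) * (a : G)⁻¹) *
          (b : G)⁻¹) * (a : G)⁻¹) * (b : G)⁻¹) * (a : G)⁻¹ := by rw [pow_succ, pow_two]; group
      _ = z := by rw [b1, a1, b2, a3, b3, a2]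

end CL.MA
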